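import Mathlib
import Cfsg.Agent.S4004
import Cfsg.Agent.S0144

/-!
# nse with three values: the case `|G| = 2 * odd` with a unique involution

If `G` has exactly three values of "number of elements of a given order", `|G| = 2k` with
`k` odd and `G` has exactly one involution, then `G` is solvable: the involution is central,
its complement `K` (Schur–Zassenhaus) has the same set of values, odd order, so S4004 and
Burnside's `p^a q^b` theorem (S0144) apply to `K`.
-/

set_option autoImplicit false

namespace Cfsg.Agent.Lib.Helper13.NSE3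

/-- A finite group whose order has at most two prime divisors is solvable (Burnside). -/
theorem solvable_of_primeFactors_card_le_two {K : Type*} [Group K] [Finite K]
    (h : (Nat.card K).primeFactors.card ≤ 2) : Group.IsSolvable K := by
  have hn : Nat.card K ≠ 0 := Nat.card_pos.ne'
  have hprod : ∏ p ∈ (Nat.card K).primeFactors, p ^ (Nat.card K).factorization p = Nat.card K := by
    have := Nat.factorization_prod_pow_eq_self hn
    rwa [Finsupp.prod, Nat.support_factorization] at this
  have hcases : (Nat.card K).primeFactors.card = 0 ∨ (Nat.card K).primeFactors.card = 1 ∨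
      (Nat.card K).primeFactors.card = 2 := by omega
  rcases hcases with h0 | h1 | h2
  · rw [Finset.card_eq_zero] at h0
    rw [h0, Finset.prod_empty] at hprod
    exact Cfsg.Agent.S0144.result 2 3 0 0 Nat.prime_two Nat.prime_three (by simpa using hprod.symm)
  · obtain ⟨p, hp⟩ := Finset.card_eq_one.mp h1
    have hpp : p.Prime := by
      have : p ∈ (Nat.card K).primeFactors := by rw [hp]; exact Finset.mem_singleton_self p
      exact Nat.prime_of_mem_primeFactors this
    rw [hp, Finset.prod_singleton] at hprod
    exact Cfsg.Agent.S0144.result p 2 ((Nat.card K).factorization p) 0 hpp Nat.prime_two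
      (by simpa using hprod.symm)
  · obtain ⟨p, q, hpq, hs⟩ := Finset.card_eq_two.mp h2
    have hpp : p.Prime := by
      have : p ∈ (Nat.card K).primeFactors := by rw [hs]; simp
      exact Nat.prime_of_mem_primeFactors this
    have hqp : q.Prime := by
      have : q ∈ (Nat.card K).primeFactors := by rw [hs]; simp
      exact Nat.prime_of_mem_primeFactors this
    rw [hs, Finset.prod_pair hpq] at hprod
    exact Cfsg.Agent.S0144.result p q ((Nat.card K).factorization p)
      ((Nat.card K).factorization q) hpp hqp hprod.symm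

/-- The case `|G| = 2 * odd` with a unique involution of "three nse values ⇒ solvable". -/
theorem solvable_of_two_odd {G : Type*} [Group G] [Finite G]
    (h : ((fun m : ℕ => Nat.card {g : G // orderOf g = m}) '' Set.range (orderOf : G → ℕ)).ncard = 3)
    (k : ℕ) (hk : Odd k) (hcard : Nat.card G = 2 * k)
    (h2 : Nat.card {g : G // orderOf g = 2} = 1) : Group.IsSolvable G := by
  classical
  obtain ⟨hsub, ⟨⟨z, hz⟩⟩⟩ := Nat.card_eq_one_iff_unique.mp h2
  have huniq : ∀ g : G, orderOf g = 2 → g = z := fun g hg =>
    congrArg Subtype.val (hsub.elim ⟨g, hg⟩ ⟨z, hz⟩)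
  -- z is central
  have hcomm : ∀ g : G, g * z = z * g := by
    intro g
    have h1 : orderOf (g * z * g⁻¹) = 2 := by
      have := (MulAut.conj g).orderOf_eq z
      rw [MulAut.conj_apply] at this
      rw [this, hz]
    have h3 := huniq _ h1
    calc g * z = g * z * g⁻¹ * g := by group
      _ = z * g := by rw [h3]
  -- the subgroup N = ⟨z⟩
  have hNn : (Subgroup.zpowers z).Normal := by
    refine ⟨fun n hn g => ?_⟩
    obtain ⟨i, rfl⟩ := Subgroup.mem_zpowers_iff.mp hn
    have hc : g * z ^ i = z ^ i * g := by
      have : Commute g z := hcomm g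
      exact (this.zpow_right i).eq
    have : g * z ^ i * g⁻¹ = z ^ i := by rw [hc]; group
    rw [this]; exact hn
  have hNcard : Nat.card (Subgroup.zpowers z) = 2 := by rw [Nat.card_zpowers, hz]
  have hNidx : (Subgroup.zpowers z).index = k := by
    have := Subgroup.card_mul_index (Subgroup.zpowers z)
    rw [hNcard, hcard] at this
    omega
  have hcop : Nat.Coprime (Nat.card (Subgroup.zpowers z)) (Subgroup.zpowers z).index := by
    rw [hNcard, hNidx]; exact (Nat.coprime_two_left).mpr hk
  obtain ⟨K, hK⟩ := Subgroup.exists_right_complement'_of_coprime hcop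
  have hKcard : Nat.card K = k := by
    have := hK.card_mul
    rw [hNcard, hcard] at this
    omega
  have hKidx : K.index = 2 := by rw [hK.index_eq_card, hNcard]
  haveI hKn : K.Normal := Subgroup.normal_of_index_eq_two hKidx
  -- elements of odd order lie in K, elements of K have odd order
  have c1 : ∀ g : G, Odd (orderOf g) → g ∈ K := by
    intro g hg
    obtain ⟨j, hj⟩ := hg
    have hsq : g ^ 2 ∈ K := by
      rw [pow_two]; exact Subgroup.mul_self_mem_of_index_two hKidx g
    have : g = (g ^ 2) ^ (j + 1) := by
      rw [← pow_mul, show 2 * (j + 1) = orderOf g + 1 by omega, pow_succ, pow_orderOf_eq_one,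
        one_mul]
    rw [this]; exact K.pow_mem hsq _
  have c2 : ∀ g : G, g ∈ K → Odd (orderOf g) := by
    intro g hg
    have h1 : orderOf (⟨g, hg⟩ : K) ∣ Nat.card K := orderOf_dvd_natCard _
    rw [Subgroup.orderOf_mk, hKcard] at h1
    exact Odd.of_dvd_nat hk h1
  have c3 : z ∉ K := by
    intro hzK
    have := c2 z hzK
    rw [hz] at this
    exact absurd this (by decide)
  have c4 : ∀ g : G, g ∉ K → z⁻¹ * g ∈ K := by
    intro g hg
    rw [Subgroup.mul_mem_iff_of_index_two hKidx]
    constructor
    · intro hz'; exact absurd (K.inv_mem_iff.mp hz') c3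
    · intro hg'; exact absurd hg' hg
  have c5 : ∀ κ : G, κ ∈ K → orderOf (z * κ) = 2 * orderOf κ := by
    intro κ hκ
    have hc : Commute z κ := (hcomm κ).symm
    have := hc.orderOf_mul_eq_mul_orderOf_of_coprime
      (by rw [hz]; exact (Nat.coprime_two_left).mpr (c2 κ hκ))
    rw [this, hz]
  -- counting functions
  have eOdd : ∀ m : ℕ, Odd m →
      Nat.card {g : G // orderOf g = m} = Nat.card {κ : K // orderOf κ = m} := by
    intro m hm
    refine Nat.card_congr
      ⟨fun g => ⟨⟨g.1, c1 g.1 (by rw [g.2]; exact hm)⟩, by rw [Subgroup.orderOf_mk]; exact g.2⟩,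
        fun κ => ⟨κ.1.1, by rw [Subgroup.orderOf_coe]; exact κ.2⟩, fun g => rfl, fun κ => rfl⟩
  have eEven : ∀ m : ℕ, Odd m →
      Nat.card {g : G // orderOf g = 2 * m} = Nat.card {κ : K // orderOf κ = m} := by
    intro m hm
    symm
    refine Nat.card_congr (Equiv.ofBijective
      (fun κ : {κ : K // orderOf κ = m} => (⟨z * κ.1.1, by
        rw [c5 _ κ.1.2, Subgroup.orderOf_coe, κ.2]⟩ : {g : G // orderOf g = 2 * m})) ⟨?_, ?_⟩)
    · intro a b hab
      have : z * a.1.1 = z * b.1.1 := congrArg Subtype.val hab
      exact Subtype.ext (Subtype.ext (mul_left_cancel this))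
    · intro g
      have hgK : g.1 ∉ K := by
        intro hgK
        have := c2 g.1 hgK
        rw [g.2] at this
        exact absurd this (by simp)
      have hκ := c4 g.1 hgK
      have hord : orderOf (z⁻¹ * g.1) = m := by
        have := c5 _ hκ
        rw [mul_inv_cancel_left, g.2] at this
        omega
      exact ⟨⟨⟨z⁻¹ * g.1, hκ⟩, by rw [Subgroup.orderOf_mk]; exact hord⟩,
        Subtype.ext (by simp)⟩
  -- the value sets coincide
  have hset : ((fun m : ℕ => Nat.card {g : K // orderOf g = m}) '' Set.range (orderOf : K → ℕ)) =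
      ((fun m : ℕ => Nat.card {g : G // orderOf g = m}) '' Set.range (orderOf : G → ℕ)) := by
    ext v
    constructor
    · rintro ⟨m, ⟨κ, rfl⟩, rfl⟩
      have hodd : Odd (orderOf κ) := by
        have := c2 κ.1 κ.2
        rwa [Subgroup.orderOf_coe] at this
      exact ⟨orderOf κ, ⟨κ.1, Subgroup.orderOf_coe κ⟩, eOdd _ hodd⟩
    · rintro ⟨m, ⟨g, rfl⟩, rfl⟩
      by_cases hg : g ∈ K
      · exact ⟨orderOf g, ⟨⟨g, hg⟩, Subgroup.orderOf_mk g hg⟩, (eOdd _ (c2 g hg)).symm⟩
      · have hκ := c4 g hg
        have hord : orderOf g = 2 * orderOf (z⁻¹ * g) := by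
          have := c5 _ hκ
          rwa [mul_inv_cancel_left] at this
        refine ⟨orderOf (z⁻¹ * g), ⟨⟨z⁻¹ * g, hκ⟩, Subgroup.orderOf_mk _ hκ⟩, ?_⟩
        show Nat.card {κ : K // orderOf κ = orderOf (z⁻¹ * g)} = Nat.card {x : G // orderOf x = orderOf g}
        rw [hord]
        exact (eEven _ (c2 _ hκ)).symm
  have hK3 : ((fun m : ℕ => Nat.card {g : K // orderOf g = m}) '' Set.range (orderOf : K → ℕ)).ncard = 3 := by
    rw [hset]; exact h
  have hKodd : Odd (Nat.card K) := by rw [hKcard]; exact hk
  haveI hKsol : Group.IsSolvable K :=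
    solvable_of_primeFactors_card_le_two (Cfsg.Agent.S4004.result hKodd hK3).1
  -- G/K has order 2
  haveI : Fact (Nat.Prime 2) := ⟨Nat.prime_two⟩
  have hq : Nat.card (G ⧸ K) = 2 := by rw [← Subgroup.index_eq_card]; exact hKidx
  haveI : Group.IsNilpotent (G ⧸ K) :=
    (IsPGroup.of_card (p := 2) (n := 1) (by rw [hq, pow_one])).isNilpotent
  haveI : Group.IsSolvable (G ⧸ K) := inferInstance
  exact solvable_of_ker_le_range K.subtype (QuotientGroup.mk' K) (by
    rw [QuotientGroup.ker_mk', Subgroup.range_subtype])

end Cfsg.Agent.Lib.Helper13.NSE3
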